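import Cfsg.Agent.Lib.SpWall.Mult
import Cfsg.Agent.Lib.QuadDisc.Classify
import Cfsg.Agent.Lib.Wall.PolarForm

/-!
# Congruence of symmetric and alternating matrices over finite fields, and the multiplicity forms

Over a finite field of odd order, unit symmetric matrices are classified up to congruence by the square class of the
determinant, and unit alternating matrices are all congruent. Hence the square classes of the multiplicity forms
classify the invariant alternating forms of a Jordan matrix under the commutant.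
-/

set_option autoImplicit false
set_option linter.unusedSectionVars false

namespace Cfsg.Agent.Lib.SpWall.Forms

open Matrix Finset
open Cfsg Cfsg.Agent.Lib.Jordan.Cent Cfsg.Agent.Lib.Jordan.FormsNec Cfsg.Agent.Lib.SpWall.Mult
open Cfsg.Agent.Lib.Jordan.FormsFin

variable {F : Type*} [Field F]

section Congr

variable {T : Type*} [Fintype T] [DecidableEq T]

theorem toBilin_apply (S : Matrix T T F) (u v : T → F) : Matrix.toBilin' S u v = u ⬝ᵥ S *ᵥ v :=
  Matrix.toBilin'_apply' S u v

theorem toMatrix_basisFun (S : Matrix T T F) :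
    LinearMap.BilinForm.toMatrix (Pi.basisFun F T) (Matrix.toBilin' S) = S := by
  ext i j
  rw [LinearMap.BilinForm.toMatrix_apply, toBilin_apply]
  simp

theorem nondeg_of_isUnit (S : Matrix T T F) (hu : IsUnit S) : (Matrix.toBilin' S).Nondegenerate := by
  rw [Cfsg.Agent.Lib.QuadDisc.Basic.nondegenerate_iff_det (Pi.basisFun F T), toMatrix_basisFun]
  exact ((Matrix.isUnit_iff_isUnit_det S).mp hu).ne_zero

theorem isAlt_toBilin (M : Matrix T T F) (h1 : ∀ x y, M y x = - M x y) (h2 : ∀ x, M x x = 0) :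
    (Matrix.toBilin' M).IsAlt := by
  have hC : ∀ u v : T → F, Matrix.toBilin' M u v = ∑ x, ∑ y, u x * M x y * v y := by
    intro u v
    rw [toBilin_apply, dotProduct]
    apply Finset.sum_congr rfl
    intro x _
    rw [Matrix.mulVec, dotProduct, Finset.mul_sum]
    apply Finset.sum_congr rfl
    intro y _
    ring
  intro v
  rw [hC, ← Finset.sum_product']
  apply Finset.sum_involution (fun p _ => (p.2, p.1))
  · rintro ⟨x, y⟩ _
    simp only
    rw [h1 x y]
    ring
  · rintro ⟨x, y⟩ _ hne heq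
    simp only [Prod.mk.injEq] at heq
    obtain ⟨rfl, -⟩ := heq
    simp [h2] at hne
  · intro p _
    exact Finset.mem_product.mpr ⟨Finset.mem_univ _, Finset.mem_univ _⟩
  · rintro ⟨x, y⟩ _
    rfl

theorem isSymm_toBilin (M : Matrix T T F) (h1 : ∀ x y, M y x = M x y) : (Matrix.toBilin' M).IsSymm := by
  rw [LinearMap.BilinForm.isSymm_def]
  intro u v
  rw [toBilin_apply, toBilin_apply]
  have hM : Mᵀ = M := by
    ext x y
    exact h1 x y
  rw [Matrix.dotProduct_mulVec, dotProduct_comm, ← Matrix.mulVec_transpose, hM]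

theorem isUnit_toMatrix (g : (T → F) ≃ₗ[F] (T → F)) : IsUnit (LinearMap.toMatrix' (g : (T → F) →ₗ[F] (T → F))) := by
  rw [← Cfsg.Agent.Lib.Classical.MatrixBridge.glToLin_symm_coe]
  exact Units.isUnit _

theorem congr_of_isom {S S' : Matrix T T F} (g : (T → F) ≃ₗ[F] (T → F))
    (hg : ∀ x y, (g x) ⬝ᵥ S *ᵥ (g y) = x ⬝ᵥ S' *ᵥ y) :
    ∃ a : Matrix T T F, IsUnit a ∧ aᵀ * S * a = S' := by
  refine ⟨LinearMap.toMatrix' (g : (T → F) →ₗ[F] (T → F)), isUnit_toMatrix g, ?_⟩
  apply ext_dot
  intro u v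
  rw [← dot_mulVec_mulVec, LinearMap.toMatrix'_mulVec, LinearMap.toMatrix'_mulVec]
  exact hg u v

theorem congr_alt [Fintype F] {S S' : Matrix T T F} (hu : IsUnit S) (hu' : IsUnit S')
    (h1 : ∀ x y, S y x = - S x y) (h2 : ∀ x, S x x = 0) (h1' : ∀ x y, S' y x = - S' x y) (h2' : ∀ x, S' x x = 0) :
    ∃ a : Matrix T T F, IsUnit a ∧ aᵀ * S * a = S' := by
  obtain ⟨g, hg⟩ := Cfsg.Agent.Lib.Wall.PolarForm.exists_isom_alt (Matrix.toBilin' S') (Matrix.toBilin' S)
    (isAlt_toBilin S' h1' h2') (isAlt_toBilin S h1 h2) (nondeg_of_isUnit S' hu') (nondeg_of_isUnit S hu) rfl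
  apply congr_of_isom g
  intro x y
  have := hg x y
  simpa only [toBilin_apply] using this

theorem congr_symm [Fintype F] (h20 : (2 : F) ≠ 0) {S S' : Matrix T T F} (hu : IsUnit S) (hu' : IsUnit S')
    (h1 : ∀ x y, S y x = S x y) (h1' : ∀ x y, S' y x = S' x y) (hsq : IsSquare (S.det * S'.det)) :
    ∃ a : Matrix T T F, IsUnit a ∧ aᵀ * S * a = S' := by
  have hsq' : IsSquare ((LinearMap.BilinForm.toMatrix (Module.finBasis F (T → F)) (Matrix.toBilin' S')).det *
      (LinearMap.BilinForm.toMatrix (Module.finBasis F (T → F)) (Matrix.toBilin' S)).det) := by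
    obtain ⟨u, -, hu1⟩ := Cfsg.Agent.Lib.QuadDisc.Basic.det_gram_change (Pi.basisFun F T)
      (Module.finBasis F (T → F)) (Matrix.toBilin' S')
    obtain ⟨v, -, hv1⟩ := Cfsg.Agent.Lib.QuadDisc.Basic.det_gram_change (Pi.basisFun F T)
      (Module.finBasis F (T → F)) (Matrix.toBilin' S)
    rw [hu1, hv1, toMatrix_basisFun, toMatrix_basisFun]
    obtain ⟨w, hw⟩ := hsq
    refine ⟨u * v * w, ?_⟩
    have : u * u * S'.det * (v * v * S.det) = u * u * (v * v) * (S.det * S'.det) := by ring
    rw [this, hw]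
    ring
  obtain ⟨g, hg⟩ := Cfsg.Agent.Lib.QuadDisc.Classify.exists_isometry h20 (Matrix.toBilin' S') (Matrix.toBilin' S)
    (nondeg_of_isUnit S' hu') (nondeg_of_isUnit S hu) (isSymm_toBilin S' h1') (isSymm_toBilin S h1) rfl hsq'
  apply congr_of_isom g
  intro x y
  have := hg x y
  simpa only [toBilin_apply] using this

end Congr

section Sq

variable [Fintype F]

theorem isSquare_mul_iff (h20 : (2 : F) ≠ 0) {a b : F} (ha : a ≠ 0) (hb : b ≠ 0) :
    IsSquare (a * b) ↔ (IsSquare a ↔ IsSquare b) := by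
  classical
  have hF : ringChar F ≠ 2 := by
    intro h
    apply h20
    have := ringChar.Nat.cast_ringChar (R := F)
    rw [h] at this
    exact_mod_cast this
  rw [← quadraticChar_one_iff_isSquare (mul_ne_zero ha hb), ← quadraticChar_one_iff_isSquare ha,
    ← quadraticChar_one_iff_isSquare hb, map_mul]
  have h1 := quadraticChar_dichotomy ha
  have h2 := quadraticChar_dichotomy hb
  rcases h1 with h1 | h1 <;> rcases h2 with h2 | h2 <;> rw [h1, h2] <;> decide

end Sq

/-! ### The multiplicity forms of an invariant alternating form -/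

variable {t : ℕ} {d : Fin t → ℕ}

section Mult

variable {G : Matrix (Ix d) (Ix d) F} (hG : Jordan.FormsNec.Inv G) (hGa : ∀ x y, G y x = - G x y)
  (hGs : ∀ x, G x x = 0)

include hG hGa

theorem mult_symm (j : ℕ) (hj : Even j) (l k : Tp d j) : mult G j k l = mult G j l k := by
  rcases Nat.eq_zero_or_pos j with h0 | h0
  · -- empty blocks do not occur in the relevant case; the entries vanish
    simp only [mult]
    rw [B_of_le_left G (by have := k.2; omega), B_of_le_left G (by have := l.2; omega)]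
  · have h3 : B G k l (j - 1) 0 = - B G l k 0 (j - 1) := by
      rw [B, B, dif_pos ⟨by rw [k.2]; omega, by rw [l.2]; omega⟩, dif_pos ⟨by rw [l.2]; omega, by rw [k.2]; omega⟩]
      exact hGa _ _
    have h4 := anti hG l k l.2 k.2 (j - 1) 0 (by omega)
    have h5 : ((-1 : F)) ^ (j - 1) = -1 := by
      have : Odd (j - 1) := by
        obtain ⟨r, hr⟩ := hj
        exact ⟨r - 1, by omega⟩
      exact this.neg_one_pow
    rw [Nat.zero_add, h5] at h4
    simp only [mult]
    rw [h3, h4]
    ring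

theorem mult_skew (j : ℕ) (hj : Odd j) (l k : Tp d j) : mult G j k l = - mult G j l k := by
  have h3 : B G k l (j - 1) 0 = - B G l k 0 (j - 1) := by
    have hj0 := hj.pos
    rw [B, B, dif_pos ⟨by rw [k.2]; omega, by rw [l.2]; omega⟩, dif_pos ⟨by rw [l.2]; omega, by rw [k.2]; omega⟩]
    exact hGa _ _
  have hj0 := hj.pos
  have h4 := anti hG l k l.2 k.2 (j - 1) 0 (by omega)
  have h5 : ((-1 : F)) ^ (j - 1) = 1 := by
    obtain ⟨r, hr⟩ := hj
    exact Even.neg_one_pow ⟨r, by omega⟩
  rw [Nat.zero_add, h5] at h4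
  simp only [mult]
  rw [h3, h4]
  ring

omit hGa in
include hGs in
theorem mult_self (j : ℕ) (hj : Odd j) (k : Tp d j) : mult G j k k = 0 := by
  obtain ⟨r, hr⟩ := hj
  have h3 := anti hG k.1 k.1 k.2 k.2 r r (by omega)
  have h4 : B G k.1 k.1 r r = 0 := by
    rw [B, dif_pos ⟨by rw [k.2]; omega, by rw [k.2]; omega⟩]
    exact hGs _
  rw [h4] at h3
  have h5 : r + r = j - 1 := by omega
  rw [h5] at h3
  have h6 : B G k.1 k.1 (j - 1) 0 = 0 := by
    have : ((-1 : F) ^ r) ≠ 0 := pow_ne_zero _ (by simp)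
    exact (mul_eq_zero.mp h3.symm).resolve_left this
  exact h6

end Mult

/-- The square class of a multiplicity form. -/
def Sq (G : Matrix (Ix d) (Ix d) F) (j : ℕ) : Prop := IsSquare (mult G j).det

theorem mult_det_ne_zero (hd : ∀ k, 1 ≤ d k) {G : Matrix (Ix d) (Ix d) F} (hG : Jordan.FormsNec.Inv G) (huG : IsUnit G)
    (j : ℕ) : (mult G j).det ≠ 0 := by
  by_cases hj : 1 ≤ j
  · exact ((Matrix.isUnit_iff_isUnit_det _).mp (mult_isUnit hG huG j hj)).ne_zero
  · have : IsEmpty (Tp d j) := ⟨fun k => hj (by rw [← k.2]; exact hd k.1)⟩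
    rw [Matrix.det_isEmpty]
    exact one_ne_zero

/-- The square classes are invariant under the commutant. -/
theorem sq_congr (hd : ∀ k, 1 ≤ d k) {G c : Matrix (Ix d) (Ix d) F} (hG : Jordan.FormsNec.Inv G) (huG : IsUnit G)
    (hu : IsUnit c) (hc : c * Nil F d = Nil F d * c) (j : ℕ) : Sq (cᵀ * G * c) j ↔ Sq G j := by
  unfold Sq
  rw [mult_congr hd hG hc, Matrix.det_mul, Matrix.det_mul, Matrix.det_transpose]
  have h1 : (res c j).det ≠ 0 :=
    ((Matrix.isUnit_iff_isUnit_det _).mp ((isUnit_iff hd hc).mp hu j)).ne_zero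
  have h2 : (res c j).det * (mult G j).det * (res c j).det = (res c j).det * (res c j).det * (mult G j).det := by ring
  rw [h2]
  exact Cfsg.Agent.Lib.QuadDisc.Basic.isSquare_mul_self_mul h1 _

/-- Invariant alternating forms with equal square classes are congruent under the commutant. -/
theorem congr_of_sq [Fintype F] {p : ℕ} [Fact p.Prime] [CharP F p] (hp : p ≠ 2) (hd : ∀ k, 1 ≤ d k)
    {G G' : Matrix (Ix d) (Ix d) F} (hG : Jordan.FormsNec.Inv G) (huG : IsUnit G) (hGa : ∀ x y, G y x = - G x y)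
    (hGs : ∀ x, G x x = 0)
    (hG' : Jordan.FormsNec.Inv G') (huG' : IsUnit G') (hGa' : ∀ x y, G' y x = - G' x y)
    (hGs' : ∀ x, G' x x = 0)
    (hsq : ∀ j, Even j → (Sq G j ↔ Sq G' j)) :
    ∃ c : Matrix (Ix d) (Ix d) F, IsUnit c ∧ c * Nil F d = Nil F d * c ∧ cᵀ * G * c = G' := by
  have h20 : (2 : F) ≠ 0 := by
    intro h
    have h1 : ((2 : ℕ) : F) = 0 := by exact_mod_cast h
    rw [CharP.cast_eq_zero_iff F p] at h1
    have hp' : p.Prime := Fact.out
    exact hp ((Nat.prime_dvd_prime_iff_eq hp' Nat.prime_two).mp h1)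
  apply congr_of_mult hp hd hG huG hGa hG' huG' hGa'
  intro j
  by_cases hj : 1 ≤ j
  · have hu := mult_isUnit hG huG j hj
    have hu' := mult_isUnit hG' huG' j hj
    rcases Nat.even_or_odd j with hev | hod
    · apply congr_symm h20 hu hu' (mult_symm hG hGa j hev) (mult_symm hG' hGa' j hev)
      rw [isSquare_mul_iff h20 (mult_det_ne_zero hd hG huG j) (mult_det_ne_zero hd hG' huG' j)]
      exact hsq j hev
    · exact congr_alt hu hu' (mult_skew hG hGa j hod) (mult_self hG hGs j hod)
        (mult_skew hG' hGa' j hod) (mult_self hG' hGs' j hod)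
  · have : IsEmpty (Tp d j) := ⟨fun k => hj (by rw [← k.2]; exact hd k.1)⟩
    refine ⟨1, isUnit_one, ?_⟩
    ext x
    exact (IsEmpty.false x).elim

end Cfsg.Agent.Lib.SpWall.Forms
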