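import Cfsg.Agent.Lib.Jordan.FormsFin

/-!
# The multiplicity forms of an invariant form under the commutant of a Jordan matrix

`mult (cᵀ G c) j = (res c j)ᵀ (mult G j) (res c j)`, lifting of families of matrices to the commutant, and the
square root argument: two invariant alternating forms with equal multiplicity forms are congruent under the
commutant.
-/

set_option autoImplicit false
set_option linter.unusedSectionVars false

namespace Cfsg.Agent.Lib.SpWall.Mult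

open Matrix Finset
open Cfsg Cfsg.Agent.Lib.Jordan.Cent Cfsg.Agent.Lib.Jordan.FormsNec

variable {F : Type*} [Field F] {t : ℕ} {d : Fin t → ℕ}

theorem mult_mul_right (hd : ∀ k, 1 ≤ d k) {G c : Matrix (Ix d) (Ix d) F} (hG : Inv G)
    (hc : c * Nil F d = Nil F d * c) (j : ℕ) : mult (G * c) j = mult G j * res c j := by
  ext ⟨l, hl⟩ ⟨k, hk⟩
  have hj : 1 ≤ j := by rw [← hl]; exact hd l
  simp only [mult, res, Matrix.mul_apply]
  rw [B, dif_pos ⟨by omega, hd k⟩, Matrix.mul_apply]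
  symm
  apply Finset.sum_of_injOn (fun m : Tp d j => (⟨m.1, ⟨0, hd m.1⟩⟩ : Ix d))
  · intro a _ b _ hab
    have := congrArg Sigma.fst hab
    exact Subtype.ext this
  · intro a _
    exact Finset.mem_univ _
  · rintro ⟨m, e⟩ - hnot
    by_contra hne
    have h1 : G ⟨l, ⟨j - 1, by omega⟩⟩ ⟨m, e⟩ ≠ 0 := left_ne_zero_of_mul hne
    have h2 : c ⟨m, e⟩ ⟨k, ⟨0, hd k⟩⟩ ≠ 0 := right_ne_zero_of_mul hne
    obtain ⟨-, h6⟩ := entry_ne_zero hc _ _ h2
    simp only at h6
    have h3 := B_apply G ⟨l, ⟨j - 1, by omega⟩⟩ ⟨m, e⟩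
    simp only at h3
    have h4 : ¬ d l ≤ (j - 1) + (e : ℕ) := fun h => h1 (by rw [← h3]; exact zero_left hG l m _ _ h)
    have h5 : ¬ d m ≤ (j - 1) + (e : ℕ) := fun h => h1 (by rw [← h3]; exact zero_right hG l m _ _ h)
    have h7 := hd m
    have he : (e : ℕ) = 0 := by omega
    have hm : d m = j := by omega
    apply hnot
    simp only [Finset.coe_univ, Set.image_univ, Set.mem_range]
    refine ⟨⟨m, hm⟩, ?_⟩
    congr 1
    exact Fin.ext he.symm
  · intro m _
    obtain ⟨m, hm⟩ := m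
    simp only
    rw [B, B, dif_pos ⟨by omega, hd m⟩, dif_pos ⟨hd m, hd k⟩]

theorem mult_tr_mul (hd : ∀ k, 1 ≤ d k) {G c : Matrix (Ix d) (Ix d) F} (hG : Inv G)
    (hc : c * Nil F d = Nil F d * c) (j : ℕ) : mult (cᵀ * G) j = (res c j)ᵀ * mult G j := by
  ext ⟨l, hl⟩ ⟨k, hk⟩
  have hj : 1 ≤ j := by rw [← hl]; exact hd l
  simp only [mult, res, Matrix.mul_apply, Matrix.transpose_apply]
  rw [B, dif_pos ⟨by omega, hd k⟩, Matrix.mul_apply]
  simp only [Matrix.transpose_apply]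
  symm
  apply Finset.sum_of_injOn (fun m : Tp d j => (⟨m.1, ⟨j - 1, by rw [m.2]; omega⟩⟩ : Ix d))
  · intro a _ b _ hab
    have := congrArg Sigma.fst hab
    exact Subtype.ext this
  · intro a _
    exact Finset.mem_univ _
  · rintro ⟨m, e⟩ - hnot
    by_contra hne
    have h1 : c ⟨m, e⟩ ⟨l, ⟨j - 1, by omega⟩⟩ ≠ 0 := left_ne_zero_of_mul hne
    have h2 : G ⟨m, e⟩ ⟨k, ⟨0, hd k⟩⟩ ≠ 0 := right_ne_zero_of_mul hne
    obtain ⟨h6, h7⟩ := entry_ne_zero hc _ _ h1
    simp only at h6 h7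
    have h3 := B_apply G ⟨m, e⟩ ⟨k, ⟨0, hd k⟩⟩
    simp only at h3
    have h5 : ¬ d k ≤ (e : ℕ) + 0 := fun h => h2 (by rw [← h3]; exact zero_right hG m k _ _ h)
    have h8 := hd m
    have h9 := e.2
    have he : (e : ℕ) = j - 1 := by omega
    have hm : d m = j := by omega
    apply hnot
    simp only [Finset.coe_univ, Set.image_univ, Set.mem_range]
    refine ⟨⟨m, hm⟩, ?_⟩
    congr 1
    exact Fin.ext he.symm
  · intro m _
    obtain ⟨m, hm⟩ := m
    simp only
    have h1 : B c m l 0 0 = B c m l (j - 1) (j - 1) :=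
      (entry_diag hc m l (hm.trans hl.symm) (j - 1) (by omega)).symm
    rw [h1, B, B, dif_pos ⟨by omega, by omega⟩, dif_pos ⟨by omega, hd k⟩]

theorem inv_tr_mul {G c : Matrix (Ix d) (Ix d) F} (hG : Inv G)
    (hc : c * Nil F d = Nil F d * c) : Inv (cᵀ * G) := by
  have hcJ := (comm_iff c).mpr hc
  unfold Jordan.FormsNec.Inv at hG ⊢
  calc (jordanTypeMatrix d F)ᵀ * (cᵀ * G) * jordanTypeMatrix d F
      = (c * jordanTypeMatrix d F)ᵀ * G * jordanTypeMatrix d F := by
        rw [Matrix.transpose_mul, ← mul_assoc]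
    _ = (jordanTypeMatrix d F * c)ᵀ * G * jordanTypeMatrix d F := by rw [hcJ]
    _ = cᵀ * ((jordanTypeMatrix d F)ᵀ * G * jordanTypeMatrix d F) := by
        rw [Matrix.transpose_mul]
        simp only [mul_assoc]
    _ = cᵀ * G := by rw [hG]

theorem inv_congr {G c : Matrix (Ix d) (Ix d) F} (hG : Inv G)
    (hc : c * Nil F d = Nil F d * c) : Inv (cᵀ * G * c) := by
  have hcJ := (comm_iff c).mpr hc
  have h := inv_tr_mul hG hc
  unfold Jordan.FormsNec.Inv at h ⊢
  calc (jordanTypeMatrix d F)ᵀ * (cᵀ * G * c) * jordanTypeMatrix d F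
      = (jordanTypeMatrix d F)ᵀ * (cᵀ * G) * (c * jordanTypeMatrix d F) := by simp only [mul_assoc]
    _ = ((jordanTypeMatrix d F)ᵀ * (cᵀ * G) * jordanTypeMatrix d F) * c := by
        rw [hcJ]
        simp only [mul_assoc]
    _ = cᵀ * G * c := by rw [h]

theorem mult_congr (hd : ∀ k, 1 ≤ d k) {G c : Matrix (Ix d) (Ix d) F} (hG : Inv G)
    (hc : c * Nil F d = Nil F d * c) (j : ℕ) :
    mult (cᵀ * G * c) j = (res c j)ᵀ * mult G j * res c j := by
  rw [mult_mul_right hd (inv_tr_mul hG hc) hc, mult_tr_mul hd hG hc]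

/-! ### Lifting families of matrices to the commutant -/

/-- The lift of a family of matrices. -/
def lift (a : (j : ℕ) → Matrix (Tp d j) (Tp d j) F) : Matrix (Ix d) (Ix d) F :=
  fun x y => if h : d x.1 = d y.1 ∧ (x.2 : ℕ) = y.2 then a (d y.1) ⟨x.1, h.1⟩ ⟨y.1, rfl⟩ else 0

theorem lift_comm (a : (j : ℕ) → Matrix (Tp d j) (Tp d j) F) : lift a * Nil F d = Nil F d * lift a := by
  ext ⟨l, e⟩ ⟨k, c⟩
  rw [mul_Nil, Nil_mul]
  simp only [lift]
  have he := e.2
  have hc := c.2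
  by_cases h : d l = d k ∧ (e : ℕ) = c + 1
  · obtain ⟨h1, h2⟩ := h
    rw [dif_pos (by omega : (c : ℕ) + 1 < d k), dif_pos (by omega : 1 ≤ (e : ℕ)),
      dif_pos (⟨h1, h2⟩ : d l = d k ∧ (e : ℕ) = (⟨(c : ℕ) + 1, by omega⟩ : Fin (d k))),
      dif_pos (⟨h1, by show (e : ℕ) - 1 = c; omega⟩)]
  · by_cases h3 : (c : ℕ) + 1 < d k
    · rw [dif_pos h3, dif_neg (fun h4 => h ⟨h4.1, h4.2⟩)]
      by_cases h5 : 1 ≤ (e : ℕ)
      · rw [dif_pos h5, dif_neg]
        rintro ⟨h6, h7⟩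
        have h7' : (e : ℕ) - 1 = c := h7
        exact h ⟨h6, by omega⟩
      · rw [dif_neg h5]
    · rw [dif_neg h3]
      by_cases h5 : 1 ≤ (e : ℕ)
      · rw [dif_pos h5, dif_neg]
        rintro ⟨h6, h7⟩
        have h7' : (e : ℕ) - 1 = c := h7
        omega
      · rw [dif_neg h5]

theorem res_lift (hd : ∀ k, 1 ≤ d k) (a : (j : ℕ) → Matrix (Tp d j) (Tp d j) F) (j : ℕ) :
    res (lift a) j = a j := by
  ext ⟨l, hl⟩ ⟨k, hk⟩
  subst hk
  simp only [res]
  rw [B, dif_pos ⟨hd l, hd k⟩]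
  simp only [lift]
  rw [dif_pos ⟨hl, trivial⟩]

/-! ### Nilpotency -/

theorem res_sub (hd : ∀ k, 1 ≤ d k) (A A' : Matrix (Ix d) (Ix d) F) (i : ℕ) :
    res (A - A') i = res A i - res A' i := by
  ext ⟨l, hl⟩ ⟨k, hk⟩
  simp only [res, Matrix.sub_apply]
  rw [B, B, B, dif_pos ⟨hd l, hd k⟩, dif_pos ⟨hd l, hd k⟩, dif_pos ⟨hd l, hd k⟩]
  rfl

/-- The weight of an index. -/
def wI (x : Ix d) : ℤ := 2 * ((x.2 : ℕ) : ℤ) - (d x.1 : ℤ)

theorem wI_lt {A : Matrix (Ix d) (Ix d) F} (hA : A * Nil F d = Nil F d * A) (h0 : ∀ i, res A i = 0)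
    (x y : Ix d) (hne : A x y ≠ 0) : wI y < wI x := by
  obtain ⟨h1, h2⟩ := entry_ne_zero hA x y hne
  have hx := x.2.2
  have hy := y.2.2
  by_contra hlt
  have h3 : d x.1 = d y.1 := by
    simp only [wI] at hlt
    omega
  have h4 : (x.2 : ℕ) = y.2 := by
    simp only [wI] at hlt
    omega
  apply hne
  obtain ⟨l, a⟩ := x
  obtain ⟨k, c⟩ := y
  simp only at h3 h4
  have h5 := B_apply A ⟨l, a⟩ ⟨k, c⟩
  simp only at h5
  rw [← h5, ← h4, entry_diag hA l k h3 a a.2]
  have h6 := congrFun (congrFun (h0 (d k)) ⟨l, h3⟩) ⟨k, rfl⟩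
  exact h6

theorem wI_pow {A : Matrix (Ix d) (Ix d) F} (hA : A * Nil F d = Nil F d * A) (h0 : ∀ i, res A i = 0) (n : ℕ) :
    ∀ x y : Ix d, (A ^ n) x y ≠ 0 → wI y + n ≤ wI x := by
  induction n with
  | zero =>
    intro x y hne
    have : x = y := by
      by_contra h
      rw [pow_zero, Matrix.one_apply_ne h] at hne
      exact hne rfl
    rw [this]
    simp
  | succ n ih =>
    intro x y hne
    rw [pow_succ, Matrix.mul_apply] at hne
    obtain ⟨z, -, hz⟩ := Finset.exists_ne_zero_of_sum_ne_zero hne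
    have h1 := ih x z (left_ne_zero_of_mul hz)
    have h2 := wI_lt hA h0 z y (right_ne_zero_of_mul hz)
    push_cast
    omega

theorem isNilpotent_of_res {A : Matrix (Ix d) (Ix d) F} (hA : A * Nil F d = Nil F d * A) (h0 : ∀ i, res A i = 0) :
    IsNilpotent A := by
  let D := ∑ k, d k
  have hD : ∀ k, d k ≤ D := fun k => Finset.single_le_sum (f := d) (fun _ _ => Nat.zero_le _) (Finset.mem_univ k)
  refine ⟨2 * D + 1, ?_⟩
  ext x y
  by_contra hne
  have h1 := wI_pow hA h0 (2 * D + 1) x y hne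
  have h2 := hD x.1
  have h3 := hD y.1
  have h4 := x.2.2
  simp only [wI] at h1
  push_cast at h1
  omega

/-! ### The square root argument -/

theorem pow_eq_one_of_nil {ι : Type*} [Fintype ι] [DecidableEq ι] {p : ℕ} [Fact p.Prime] [CharP F p]
    (b : Matrix ι ι F) (e : ℕ) : (b - 1) ^ (p ^ e) = b ^ (p ^ e) - 1 := by
  have h2 : ((Polynomial.X : Polynomial F) - 1) ^ (p ^ e) = Polynomial.X ^ (p ^ e) - 1 := by
    rw [sub_pow_char_pow]
    simp
  have h3 := congrArg (Polynomial.aeval b) h2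
  simpa using h3

theorem sqrt_congr {p : ℕ} [Fact p.Prime] [CharP F p] (hp : p ≠ 2) (hd : ∀ k, 1 ≤ d k)
    {G G' : Matrix (Ix d) (Ix d) F} (hG : Inv G) (huG : IsUnit G) (hGa : ∀ x y, G y x = - G x y)
    (hG' : Inv G') (huG' : IsUnit G') (hGa' : ∀ x y, G' y x = - G' x y)
    (hm : ∀ j, mult G j = mult G' j) :
    ∃ c : Matrix (Ix d) (Ix d) F, IsUnit c ∧ c * Nil F d = Nil F d * c ∧ cᵀ * G * c = G' := by
  classical
  have hdet : IsUnit G.det := (Matrix.isUnit_iff_isUnit_det G).mp huG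
  let b : Matrix (Ix d) (Ix d) F := G⁻¹ * G'
  have hGb : G * b = G' := by
    simp only [b]
    rw [← mul_assoc, Matrix.mul_nonsing_inv G hdet, one_mul]
  have hJu : IsUnit (jordanTypeMatrix d F) := Cfsg.Agent.Lib.Jordan.FormsFin.J_isUnit_of_inv hG huG
  let K : Matrix (Ix d) (Ix d) F := ((jordanTypeMatrix d F)ᵀ)⁻¹
  have hK : K * (jordanTypeMatrix d F)ᵀ = 1 := by
    apply Matrix.nonsing_inv_mul
    rw [Matrix.det_transpose]
    exact (Matrix.isUnit_iff_isUnit_det _).mp hJu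
  have hK1 : ∀ H : Matrix (Ix d) (Ix d) F, Inv H → H * jordanTypeMatrix d F = K * H := by
    intro H hH
    have h1 : K * ((jordanTypeMatrix d F)ᵀ * H * jordanTypeMatrix d F) = K * H := by rw [hH]
    rw [← h1, mul_assoc, ← mul_assoc K, hK, one_mul]
  have hbJ : b * jordanTypeMatrix d F = jordanTypeMatrix d F * b := by
    have h1 : G * (b * jordanTypeMatrix d F) = G * (jordanTypeMatrix d F * b) := by
      rw [← mul_assoc, hGb, hK1 G' hG', ← mul_assoc, hK1 G hG, mul_assoc, hGb]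
    have h2 := congrArg (fun X => G⁻¹ * X) h1
    simpa only [← mul_assoc, Matrix.nonsing_inv_mul G hdet, one_mul] using h2
  have hbN : b * Nil F d = Nil F d * b := (comm_iff b).mp hbJ
  have hres : ∀ j, res b j = 1 := by
    intro j
    by_cases hj : 1 ≤ j
    · have h1 : mult G j * res b j = mult G j := by
        rw [← mult_mul_right hd hG hbN, hGb, hm]
      have h2 := mult_isUnit hG huG j hj
      have h3 : mult G j * res b j = mult G j * 1 := by rw [h1, mul_one]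
      exact h2.mul_left_cancel h3
    · have : IsEmpty (Tp d j) := ⟨fun k => hj (by rw [← k.2]; exact hd k.1)⟩
      ext x
      exact (IsEmpty.false x).elim
  have hN : IsNilpotent (b - 1) := by
    apply isNilpotent_of_res
    · rw [sub_mul, mul_sub, one_mul, mul_one, hbN]
    · intro i
      rw [res_sub hd, hres, res_one hd, sub_self]
  obtain ⟨n, hn⟩ := hN
  have hp' : p.Prime := Fact.out
  have hlt : n ≤ p ^ n := (Nat.lt_pow_self hp'.one_lt).le
  have hb1 : (b - 1) ^ (p ^ n) = 0 := pow_eq_zero_of_le hlt hn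
  rw [pow_eq_one_of_nil (p := p)] at hb1
  have hb2 : b ^ (p ^ n) = 1 := sub_eq_zero.mp hb1
  have hodd : Odd (p ^ n) := (hp'.odd_of_ne_two hp).pow
  obtain ⟨r, hr⟩ := hodd
  refine ⟨b ^ (r + 1), ?_, ?_, ?_⟩
  · have h1 : IsUnit b := by
      refine IsUnit.mul ?_ huG'
      rw [Matrix.isUnit_iff_isUnit_det, Matrix.det_nonsing_inv]
      simpa [Ring.inverse_eq_inv', isUnit_iff_ne_zero] using hdet.ne_zero
    exact h1.pow _
  · exact ((show Commute b (Nil F d) from hbN).pow_left _).eq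
  · have h1 : G * b = bᵀ * G := by
      rw [hGb]
      simp only [b]
      have hGt : Gᵀ = - G := by
        ext x y
        exact hGa x y
      have hGt' : G'ᵀ = - G' := by
        ext x y
        exact hGa' x y
      have hinv : (-G)⁻¹ = -G⁻¹ := Matrix.inv_eq_left_inv (by rw [neg_mul_neg, Matrix.nonsing_inv_mul G hdet])
      rw [Matrix.transpose_mul, Matrix.transpose_nonsing_inv, hGt, hGt', hinv]
      simp only [neg_mul, mul_neg, neg_neg]
      rw [mul_assoc, Matrix.nonsing_inv_mul G hdet, mul_one]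
    have h2 : G * b ^ (r + 1) = (bᵀ) ^ (r + 1) * G :=
      (show SemiconjBy G b bᵀ from h1).pow_right (r + 1)
    rw [Matrix.transpose_pow, ← h2, mul_assoc, ← pow_add]
    have h3 : r + 1 + (r + 1) = p ^ n + 1 := by omega
    rw [h3, pow_succ, hb2, one_mul, hGb]

/-- Two invariant alternating forms with congruent multiplicity forms are congruent under the commutant. -/
theorem congr_of_mult {p : ℕ} [Fact p.Prime] [CharP F p] (hp : p ≠ 2) (hd : ∀ k, 1 ≤ d k)
    {G G' : Matrix (Ix d) (Ix d) F} (hG : Inv G) (huG : IsUnit G) (hGa : ∀ x y, G y x = - G x y)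
    (hG' : Inv G') (huG' : IsUnit G') (hGa' : ∀ x y, G' y x = - G' x y)
    (hm : ∀ j, ∃ a : Matrix (Tp d j) (Tp d j) F, IsUnit a ∧ aᵀ * mult G j * a = mult G' j) :
    ∃ c : Matrix (Ix d) (Ix d) F, IsUnit c ∧ c * Nil F d = Nil F d * c ∧ cᵀ * G * c = G' := by
  classical
  choose a ha ham using hm
  let c₀ := lift a
  have hc₀ : c₀ * Nil F d = Nil F d * c₀ := lift_comm a
  have huc₀ : IsUnit c₀ := by
    rw [isUnit_iff hd hc₀]
    intro i
    rw [res_lift hd]
    exact ha i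
  have hG₁ := inv_congr hG hc₀
  have huG₁ : IsUnit (c₀ᵀ * G * c₀) := by
    refine IsUnit.mul (IsUnit.mul ?_ huG) huc₀
    rw [Matrix.isUnit_iff_isUnit_det, Matrix.det_transpose, ← Matrix.isUnit_iff_isUnit_det]
    exact huc₀
  have hG₁a : ∀ x y, (c₀ᵀ * G * c₀) y x = - (c₀ᵀ * G * c₀) x y := by
    have hGt : Gᵀ = - G := by
      ext x y
      exact hGa x y
    have h1 : (c₀ᵀ * G * c₀)ᵀ = - (c₀ᵀ * G * c₀) := by
      simp only [Matrix.transpose_mul, Matrix.transpose_transpose, hGt]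
      simp only [Matrix.mul_neg, Matrix.neg_mul, mul_assoc]
    intro x y
    have h2 := congrFun (congrFun h1 x) y
    simpa using h2
  have hm' : ∀ j, mult (c₀ᵀ * G * c₀) j = mult G' j := by
    intro j
    rw [mult_congr hd hG hc₀, res_lift hd, ham]
  obtain ⟨c₁, hc₁u, hc₁, hc₁e⟩ := sqrt_congr hp hd hG₁ huG₁ hG₁a hG' huG' hGa' hm'
  refine ⟨c₀ * c₁, huc₀.mul hc₁u, ?_, ?_⟩
  · rw [mul_assoc, hc₁, ← mul_assoc, hc₀, mul_assoc]
  · rw [← hc₁e, Matrix.transpose_mul]
    simp only [mul_assoc]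

end Cfsg.Agent.Lib.SpWall.Mult
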