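import Cfsg.Agent.Lib.SpWall.Forms

/-!
# Realization of the square classes by invariant alternating forms
-/

set_option autoImplicit false
set_option linter.unusedSectionVars false

namespace Cfsg.Agent.Lib.SpWall.Real

open Matrix Finset
open Cfsg Cfsg.Agent.Lib.Jordan.Cent Cfsg.Agent.Lib.Jordan.FormsNec Cfsg.Agent.Lib.Jordan.FormsEx
open Cfsg.Agent.Lib.SpWall.Mult Cfsg.Agent.Lib.SpWall.Forms

variable {F : Type*} [Field F] {t : ℕ} {d : Fin t → ℕ}

section Scale

variable {G₀ : Matrix (Ix d) (Ix d) F} (s : Fin t → F) (hs0 : ∀ k, s k ≠ 0)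
  (hsupp : ∀ x y, G₀ x y ≠ 0 → s x.1 = s y.1)

/-- The scaled form. -/
def scaled (s : Fin t → F) (G₀ : Matrix (Ix d) (Ix d) F) : Matrix (Ix d) (Ix d) F := fun x y => s x.1 * G₀ x y

theorem scaled_eq (s : Fin t → F) (G₀ : Matrix (Ix d) (Ix d) F) :
    scaled s G₀ = Matrix.diagonal (fun x : Ix d => s x.1) * G₀ := by
  ext x y
  rw [Matrix.diagonal_mul]
  rfl

include hs0 in
theorem scaled_isUnit (hu : IsUnit G₀) : IsUnit (scaled s G₀) := by
  rw [scaled_eq]
  refine IsUnit.mul ?_ hu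
  rw [Matrix.isUnit_iff_isUnit_det, Matrix.det_diagonal, isUnit_iff_ne_zero]
  exact Finset.prod_ne_zero_iff.mpr (fun x _ => hs0 x.1)

theorem scaled_inv (hG : Jordan.FormsNec.Inv G₀) : Jordan.FormsNec.Inv (scaled s G₀) := by
  have hJ : ∀ A : Matrix (Ix d) (Ix d) F, (jordanTypeMatrix d F)ᵀ * scaled s A = scaled s ((jordanTypeMatrix d F)ᵀ * A) := by
    intro A
    ext x y
    simp only [scaled, Matrix.mul_apply, Finset.mul_sum]
    apply Finset.sum_congr rfl
    intro z _
    by_cases h : x.1 = z.1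
    · rw [h]
      ring
    · have h0 : (jordanTypeMatrix d F)ᵀ x z = 0 := by
        rw [Matrix.transpose_apply, J_eq, Matrix.add_apply, Matrix.one_apply_ne (fun h2 => h (by rw [h2])), zero_add]
        simp only [Nil]
        rw [if_neg (fun h2 => h h2.1.symm)]
      rw [h0]
      ring
  have hR : ∀ A B : Matrix (Ix d) (Ix d) F, scaled s A * B = scaled s (A * B) := by
    intro A B
    ext x y
    simp only [scaled, Matrix.mul_apply, Finset.mul_sum]
    apply Finset.sum_congr rfl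
    intro z _
    ring
  unfold Jordan.FormsNec.Inv at hG ⊢
  rw [hJ, hR, hG]

include hsupp in
theorem scaled_skew (hGa : ∀ x y, G₀ y x = - G₀ x y) (x y : Ix d) : scaled s G₀ y x = - scaled s G₀ x y := by
  simp only [scaled]
  by_cases h : G₀ x y = 0
  · rw [hGa x y, h]
    simp
  · rw [hGa x y, hsupp x y h]
    ring

theorem scaled_self (hGs : ∀ x, G₀ x x = 0) (x : Ix d) : scaled s G₀ x x = 0 := by
  simp only [scaled]
  rw [hGs, mul_zero]

theorem mult_scaled (j : ℕ) : mult (scaled s G₀) j = Matrix.diagonal (fun l : Tp d j => s l.1) * mult G₀ j := by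
  ext l k
  rw [Matrix.diagonal_mul]
  simp only [mult, B, scaled]
  by_cases h : j - 1 < d l.1 ∧ 0 < d k.1
  · rw [dif_pos h, dif_pos h]
  · rw [dif_neg h, dif_neg h, mul_zero]

theorem det_mult_scaled (j : ℕ) :
    (mult (scaled s G₀) j).det = (∏ l : Tp d j, s l.1) * (mult G₀ j).det := by
  rw [mult_scaled, Matrix.det_mul, Matrix.det_diagonal]

end Scale

/-- Realization of the square classes. -/
theorem exists_form [Fintype F] (h20 : (2 : F) ≠ 0) (hd : ∀ k, 1 ≤ d k)
    (hpar : ∀ j, Odd j → Even (Finset.univ.filter (fun k : Fin t => d k = j)).card) (τ : ℕ → Prop) :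
    ∃ G : Matrix (Ix d) (Ix d) F, Jordan.FormsNec.Inv G ∧ IsUnit G ∧ (∀ x y, G y x = - G x y) ∧ (∀ x, G x x = 0) ∧
      ∀ j, Even j → (∃ k, d k = j) → (Sq G j ↔ τ j) := by
  classical
  obtain ⟨σ₀, hσ₀, hdσ₀, hfix₀⟩ := exists_pairing (d := d) trivial Odd hpar
  let σ : Fin t → Fin t := fun k => if Odd (d k) then σ₀ k else k
  have hdσ : ∀ k, d (σ k) = d k := by
    intro k
    simp only [σ]
    split_ifs with h
    · exact hdσ₀ k
    · rfl
  have hσ : ∀ k, σ (σ k) = k := by
    intro k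
    by_cases h : Odd (d k)
    · have h1 : σ k = σ₀ k := if_pos h
      have h2 : σ (σ₀ k) = σ₀ (σ₀ k) := if_pos (by rw [hdσ₀]; exact h)
      rw [h1, h2, hσ₀]
    · have h1 : σ k = k := if_neg h
      rw [h1, h1]
  have hfix : ∀ k, σ k = k → ¬ Odd (d k) := by
    intro k hk h
    have h1 : σ k = σ₀ k := if_pos h
    exact hfix₀ k (h1 ▸ hk) h
  have hev : ∀ k, σ k = k → 2 * (d k / 2) = d k := by
    intro k hk
    have := hfix k hk
    rw [Nat.not_odd_iff_even] at this
    obtain ⟨r, hr⟩ := this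
    omega
  let Sg : ℕ → ℕ → ℕ → F := fun j a c => blockA (j / 2) a c
  have hε : (-1 : F) * (-1) = 1 := by ring
  have hrel : ∀ k, σ k = k → ∀ a c, Sg (d k) (a + 1) c + Sg (d k) a (c + 1) + Sg (d k) (a + 1) (c + 1) = 0 :=
    fun k _ a c => blockA_rel _ a c
  have hfar : ∀ k, σ k = k → ∀ a c, d k ≤ a + c → Sg (d k) a c = 0 := fun k hk a c h =>
    blockA_far _ a c (by rw [hev k hk]; exact h)
  have hanti : ∀ k, σ k = k → ∀ a c, a + c + 1 = d k → Sg (d k) a c ≠ 0 := fun k hk a c h =>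
    blockA_anti _ a c (by rw [hev k hk]; exact h)
  have hswap : ∀ k, σ k = k → ∀ a c, Sg (d k) c a = (-1) * Sg (d k) a c := fun k _ a c => by
    show blockA _ c a = _
    rw [blockA_swap, neg_one_mul]
  let G₀ : Matrix (Ix d) (Ix d) F := Gm σ (-1) Sg
  have hG₀ : Jordan.FormsNec.Inv G₀ := Gm_inv hdσ hrel hfar
  have huG₀ : IsUnit G₀ := Gm_isUnit hσ hdσ hfar hanti (by simp)
  have hG₀a : ∀ x y, G₀ y x = - G₀ x y := by
    intro x y
    show Gm σ (-1) Sg y x = - Gm σ (-1) Sg x y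
    rw [Gm_swap hσ hdσ hε hswap x y, neg_one_mul]
  have hG₀s : ∀ x, G₀ x x = 0 := Gm_self hσ (fun k _ a => blockA_self _ a)
  have hsuppσ : ∀ x y, G₀ x y ≠ 0 → x.1 = σ y.1 := by
    intro x y h
    by_contra hne
    apply h
    show Phi (d := d) σ (-1) Sg x.1 y.1 x.2 y.2 = 0
    unfold Phi
    rw [if_neg hne]
  -- the scaling
  have hF : ringChar F ≠ 2 := by
    intro h
    apply h20
    have := ringChar.Nat.cast_ringChar (R := F)
    rw [h] at this
    exact_mod_cast this
  obtain ⟨n₀, hn₀⟩ := FiniteField.exists_nonsquare hF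
  have hn₀0 : n₀ ≠ 0 := fun h => hn₀ (by rw [h]; exact IsSquare.zero)
  let u : ℕ → F := fun j => if (τ j ↔ Sq G₀ j) then 1 else n₀
  have hu0 : ∀ j, u j ≠ 0 := by
    intro j
    simp only [u]
    split_ifs
    · exact one_ne_zero
    · exact hn₀0
  let rep : ℕ → Option (Fin t) := fun j => if h : ∃ k, d k = j then some h.choose else none
  let s : Fin t → F := fun k => if Even (d k) ∧ rep (d k) = some k then u (d k) else 1
  have hs0 : ∀ k, s k ≠ 0 := by
    intro k
    simp only [s]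
    split_ifs
    · exact hu0 _
    · exact one_ne_zero
  have hsσ : ∀ k, s (σ k) = s k := by
    intro k
    by_cases h : Odd (d k)
    · have h1 : ¬ Even (d k) := Nat.not_even_iff_odd.mpr h
      have h2 : ¬ Even (d (σ k)) := by rw [hdσ]; exact h1
      simp only [s]
      rw [if_neg (fun h3 => h2 h3.1), if_neg (fun h3 => h1 h3.1)]
    · have h1 : σ k = k := if_neg h
      rw [h1]
  have hsupp : ∀ x y, G₀ x y ≠ 0 → s x.1 = s y.1 := by
    intro x y h
    rw [hsuppσ x y h, hsσ]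
  refine ⟨scaled s G₀, scaled_inv s hG₀, scaled_isUnit s hs0 huG₀, scaled_skew s hsupp hG₀a, scaled_self s hG₀s, ?_⟩
  intro j hj hex
  have hrep : rep j = some hex.choose := by
    simp only [rep]
    rw [dif_pos hex]
  have hk₀ := hex.choose_spec
  set k₀ := hex.choose with hk₀def
  have hprod : ∏ l : Tp d j, s l.1 = u j := by
    rw [Finset.prod_eq_single (⟨k₀, hk₀⟩ : Tp d j)]
    · simp only [s]
      rw [if_pos ⟨by rw [hk₀]; exact hj, by rw [hk₀]; exact hrep⟩, hk₀]
    · rintro ⟨l, hl⟩ - hne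
      simp only [s]
      rw [if_neg]
      rintro ⟨-, h2⟩
      rw [hl, hrep] at h2
      apply hne
      apply Subtype.ext
      simp only
      exact (Option.some.inj h2).symm
    · intro h
      exact absurd (Finset.mem_univ _) h
  unfold Sq
  rw [det_mult_scaled, hprod]
  have hD : (mult G₀ j).det ≠ 0 := mult_det_ne_zero hd hG₀ huG₀ j
  by_cases hτ : (τ j ↔ Sq G₀ j)
  · have : u j = 1 := if_pos hτ
    rw [this, one_mul]
    exact hτ.symm
  · have : u j = n₀ := if_neg hτ
    rw [this, isSquare_mul_iff h20 hn₀0 hD]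
    unfold Sq at hτ
    tauto

end Cfsg.Agent.Lib.SpWall.Real
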