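import Cfsg.Agent.Lib.SpWall.Real
import Cfsg.Agent.Lib.Classical.SympForm
import Cfsg.Agent.Lib.Jordan.Basis

/-!
# From unipotent symplectic matrices to invariant alternating forms on the blocks of a Jordan type
-/

set_option autoImplicit false
set_option linter.unusedSectionVars false

namespace Cfsg.Agent.Lib.SpWall.Rel

open Matrix Finset Module
open Cfsg Cfsg.Agent.Lib.Jordan.Cent Cfsg.Agent.Lib.Jordan.FormsNec Cfsg.Agent.Lib.Jordan.Basis
open Cfsg.Agent.Lib.Jordan.FormsFin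
open Cfsg.Agent.Lib.SpWall.Mult Cfsg.Agent.Lib.SpWall.Forms Cfsg.Agent.Lib.SpWall.Real
open Cfsg.Agent.Lib.Classical.SympForm

variable {F : Type*} [Field F] {t : ℕ} {d : Fin t → ℕ} {m : ℕ}

/-- An invariant nondegenerate alternating form. -/
def IsAltInv (G : Matrix (Ix d) (Ix d) F) : Prop :=
  Jordan.FormsNec.Inv G ∧ IsUnit G ∧ (∀ x y, G y x = - G x y) ∧ ∀ x, G x x = 0

/-- The nilpotent part of a matrix. -/
noncomputable def Nm' (g : Matrix (Fin m ⊕ Fin m) (Fin m ⊕ Fin m) F) :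
    (Fin m ⊕ Fin m → F) →ₗ[F] (Fin m ⊕ Fin m → F) := Matrix.mulVecLin (g - 1)

theorem Nm'_apply (g : Matrix (Fin m ⊕ Fin m) (Fin m ⊕ Fin m) F) (x : Fin m ⊕ Fin m → F) :
    Nm' g x = g *ᵥ x - x := by
  simp [Nm', Matrix.sub_mulVec]

theorem Nm'_pow (g : Matrix (Fin m ⊕ Fin m) (Fin m ⊕ Fin m) F) (s : ℕ) :
    (Nm' g) ^ s = Matrix.mulVecLin ((g - 1) ^ s) := by
  induction s with
  | zero =>
    simp only [pow_zero, Matrix.mulVecLin_one]
    rfl
  | succ s ih =>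
    rw [pow_succ, ih, pow_succ, Matrix.mulVecLin_mul]
    rfl

theorem matrix_ext_mulVec {ι κ : Type*} [Fintype κ] [DecidableEq κ] {A B : Matrix ι κ F}
    (h : ∀ x, A *ᵥ x = B *ᵥ x) : A = B := by
  ext i j
  have := congrFun (h (Pi.single j 1)) i
  simpa using this

/-- The relation between a matrix and a form on the blocks. -/
def Rel (g : Matrix (Fin m ⊕ Fin m) (Fin m ⊕ Fin m) F) (G : Matrix (Ix d) (Ix d) F) : Prop :=
  ∃ P : (Ix d → F) ≃ₗ[F] (Fin m ⊕ Fin m → F), (∀ x, P (jordanTypeMatrix d F *ᵥ x) = g *ᵥ P x) ∧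
    ∀ x y, sympForm m F (P x) (P y) = x ⬝ᵥ G *ᵥ y

theorem Rel.semi {g : Matrix (Fin m ⊕ Fin m) (Fin m ⊕ Fin m) F} {P : (Ix d → F) ≃ₗ[F] (Fin m ⊕ Fin m → F)}
    (hP : ∀ x, P (jordanTypeMatrix d F *ᵥ x) = g *ᵥ P x) (y : Fin m ⊕ Fin m → F) :
    P.symm (g *ᵥ y) = jordanTypeMatrix d F *ᵥ P.symm y := by
  apply P.injective
  rw [hP, LinearEquiv.apply_symm_apply, LinearEquiv.apply_symm_apply]

/-- Two forms related to the same matrix are congruent under the commutant. -/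
theorem rel_unique {g : Matrix (Fin m ⊕ Fin m) (Fin m ⊕ Fin m) F} {G G' : Matrix (Ix d) (Ix d) F}
    (h : Rel g G) (h' : Rel g G') :
    ∃ c : Matrix (Ix d) (Ix d) F, IsUnit c ∧ c * Nil F d = Nil F d * c ∧ cᵀ * G * c = G' := by
  classical
  obtain ⟨P, hP, hPG⟩ := h
  obtain ⟨P', hP', hPG'⟩ := h'
  let E : (Ix d → F) ≃ₗ[F] (Ix d → F) := P'.trans P.symm
  have hE : ∀ x, LinearMap.toMatrix' (E : (Ix d → F) →ₗ[F] (Ix d → F)) *ᵥ x = P.symm (P' x) := by
    intro x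
    rw [LinearMap.toMatrix'_mulVec]
    rfl
  refine ⟨LinearMap.toMatrix' (E : (Ix d → F) →ₗ[F] (Ix d → F)), isUnit_toMatrix E, ?_, ?_⟩
  · rw [← comm_iff]
    apply matrix_ext_mulVec
    intro x
    rw [← Matrix.mulVec_mulVec, ← Matrix.mulVec_mulVec, hE, hE, hP', Rel.semi hP]
  · apply ext_dot
    intro u v
    rw [← dot_mulVec_mulVec, hE, hE, ← hPG, ← hPG']
    simp

theorem rel_congr {g : Matrix (Fin m ⊕ Fin m) (Fin m ⊕ Fin m) F} {G c : Matrix (Ix d) (Ix d) F}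
    (h : Rel g G) (hu : IsUnit c) (hc : c * Nil F d = Nil F d * c) : Rel g (cᵀ * G * c) := by
  classical
  obtain ⟨P, hP, hPG⟩ := h
  have hcJ := (comm_iff c).mpr hc
  let E : (Ix d → F) ≃ₗ[F] (Ix d → F) := Cfsg.Agent.Lib.Classical.MatrixBridge.glToLin hu.unit
  have hE : ∀ x, E x = c *ᵥ x := fun x => rfl
  refine ⟨E.trans P, ?_, ?_⟩
  · intro x
    rw [LinearEquiv.trans_apply, LinearEquiv.trans_apply, hE, hE, Matrix.mulVec_mulVec, hcJ,
      ← Matrix.mulVec_mulVec, hP]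
  · intro x y
    rw [LinearEquiv.trans_apply, LinearEquiv.trans_apply, hE, hE, hPG, dot_mulVec_mulVec]

/-- Matrices related to the same form are conjugate in the symplectic group. -/
theorem rel_conj {g g' : Matrix (Fin m ⊕ Fin m) (Fin m ⊕ Fin m) F} {G : Matrix (Ix d) (Ix d) F}
    (h : Rel g G) (h' : Rel g' G) :
    ∃ c : Matrix (Fin m ⊕ Fin m) (Fin m ⊕ Fin m) F, c ∈ Matrix.symplecticGroup (Fin m) F ∧ c * g = g' * c := by
  classical
  obtain ⟨P, hP, hPG⟩ := h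
  obtain ⟨P', hP', hPG'⟩ := h'
  let E : (Fin m ⊕ Fin m → F) ≃ₗ[F] (Fin m ⊕ Fin m → F) := P.symm.trans P'
  have hE : ∀ x, LinearMap.toMatrix' (E : (Fin m ⊕ Fin m → F) →ₗ[F] (Fin m ⊕ Fin m → F)) *ᵥ x = P' (P.symm x) := by
    intro x
    rw [LinearMap.toMatrix'_mulVec]
    rfl
  refine ⟨LinearMap.toMatrix' (E : (Fin m ⊕ Fin m → F) →ₗ[F] (Fin m ⊕ Fin m → F)), ?_, ?_⟩
  · rw [mem_symplecticGroup_iff]
    intro u v
    rw [hE, hE, hPG', ← hPG]
    simp
  · apply matrix_ext_mulVec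
    intro x
    rw [← Matrix.mulVec_mulVec, ← Matrix.mulVec_mulVec, hE, hE, Rel.semi hP, hP']

theorem rel_of_conj {g g' : Matrix (Fin m ⊕ Fin m) (Fin m ⊕ Fin m) F} {G : Matrix (Ix d) (Ix d) F}
    (h : Rel g G) (c : Matrix.symplecticGroup (Fin m) F) (hc : c.1 * g = g' * c.1) : Rel g' G := by
  obtain ⟨P, hP, hPG⟩ := h
  refine ⟨P.trans (spLin c), ?_, ?_⟩
  · intro x
    rw [LinearEquiv.trans_apply, LinearEquiv.trans_apply, spLin_apply, spLin_apply, hP, Matrix.mulVec_mulVec, hc,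
      ← Matrix.mulVec_mulVec]
  · intro x y
    rw [LinearEquiv.trans_apply, LinearEquiv.trans_apply, spLin_apply, spLin_apply,
      (mem_symplecticGroup_iff _).1 c.2, hPG]

/-- The Jordan basis attached to the relation. -/
theorem rel_jordan {g : Matrix (Fin m ⊕ Fin m) (Fin m ⊕ Fin m) F} {G : Matrix (Ix d) (Ix d) F} (h : Rel g G) :
    ∃ b : Basis (Ix d) F (Fin m ⊕ Fin m → F), IsJordanBasis (Nm' g) d b := by
  classical
  obtain ⟨P, hP, -⟩ := h
  refine ⟨(Pi.basisFun F (Ix d)).map P, ?_⟩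
  intro k j
  have h0 := isJordanBasis_std (F := F) d k j
  have h1 : Nm' g (((Pi.basisFun F (Ix d)).map P) ⟨k, j⟩) =
      P ((Matrix.mulVecLin (jordanTypeMatrix d F - 1)) ((Pi.basisFun F (Ix d)) ⟨k, j⟩)) := by
    rw [Basis.map_apply, Nm'_apply, ← hP, ← map_sub]
    congr 1
    simp [Matrix.sub_mulVec]
  rw [h1, h0]
  by_cases hlt : (j : ℕ) + 1 < d k
  · rw [dif_pos hlt, dif_pos hlt, Basis.map_apply]
  · rw [dif_neg hlt, dif_neg hlt, map_zero]

/-- From a Jordan basis of a symplectic matrix to an invariant alternating form. -/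
theorem exists_rel {t₁ : ℕ} {d₁ : Fin t₁ → ℕ} {g : Matrix (Fin m ⊕ Fin m) (Fin m ⊕ Fin m) F}
    (hg : g ∈ Matrix.symplecticGroup (Fin m) F) {b : Basis (Ix d₁) F (Fin m ⊕ Fin m → F)}
    (hb : IsJordanBasis (Nm' g) d₁ b) (hm : mset d = mset d₁) :
    ∃ G : Matrix (Ix d) (Ix d) F, IsAltInv G ∧ Rel g G := by
  classical
  obtain ⟨σ, hσ⟩ := exists_fin_equiv hm
  let E : Ix d ≃ Ix d₁ := Equiv.sigmaCongr σ (fun k => finCongr (hσ k).symm)
  let P : (Ix d → F) ≃ₗ[F] (Fin m ⊕ Fin m → F) := (Pi.basisFun F (Ix d)).equiv b E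
  have hstd := isJordanBasis_std (F := F) d
  have key : ∀ x, P ((Matrix.mulVecLin (jordanTypeMatrix d F - 1)) ((Pi.basisFun F (Ix d)) x)) =
      Nm' g (P ((Pi.basisFun F (Ix d)) x)) := by
    rintro ⟨k, j⟩
    simp only [P]
    rw [Basis.equiv_apply]
    have hE : E ⟨k, j⟩ = ⟨σ k, ⟨j, by rw [hσ]; exact j.2⟩⟩ := rfl
    rw [hE, hstd k j, hb (σ k)]
    by_cases h1 : (j : ℕ) + 1 < d k
    · have h2 : (j : ℕ) + 1 < d₁ (σ k) := by rw [hσ]; exact h1
      rw [dif_pos h1, dif_pos h2, Basis.equiv_apply]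
      rfl
    · have h2 : ¬ (j : ℕ) + 1 < d₁ (σ k) := by rw [hσ]; exact h1
      rw [dif_neg h1, dif_neg h2, map_zero]
  have hN : P.toLinearMap ∘ₗ Matrix.mulVecLin (jordanTypeMatrix d F - 1) = Nm' g ∘ₗ P.toLinearMap :=
    (Pi.basisFun F (Ix d)).ext (fun i => key i)
  have hP : ∀ x, P (jordanTypeMatrix d F *ᵥ x) = g *ᵥ P x := by
    intro x
    have h1 := LinearMap.congr_fun hN x
    simp only [LinearMap.comp_apply, Matrix.mulVecLin_apply, LinearEquiv.coe_coe] at h1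
    rw [Nm'_apply, Matrix.sub_mulVec, Matrix.one_mulVec, map_sub] at h1
    exact sub_left_injective h1
  let Bf : LinearMap.BilinForm F (Ix d → F) := (sympBilin m F).compl₁₂ P.toLinearMap P.toLinearMap
  let G : Matrix (Ix d) (Ix d) F := LinearMap.BilinForm.toMatrix' Bf
  have hG : ∀ x y, sympForm m F (P x) (P y) = x ⬝ᵥ G *ᵥ y := by
    intro x y
    rw [← Matrix.toBilin'_apply', Matrix.toBilin'_toMatrix']
    rfl
  have hgS := (mem_symplecticGroup_iff g).1 hg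
  refine ⟨G, ⟨?_, ?_, ?_, ?_⟩, P, hP, hG⟩
  · apply ext_dot
    intro u v
    rw [← dot_mulVec_mulVec, ← hG, ← hG, hP, hP, hgS]
  · rw [← Matrix.mulVec_injective_iff_isUnit]
    intro v v' hvv
    have h1 : G *ᵥ (v - v') = 0 := by rw [Matrix.mulVec_sub, hvv, sub_self]
    have h2 : P (v - v') = 0 := by
      apply (sympBilin_nondegenerate (m := m) (F := F)).2
      intro u
      have h3 := hG (P.symm u) (v - v')
      rw [LinearEquiv.apply_symm_apply, h1, dotProduct_zero] at h3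
      exact h3
    exact sub_eq_zero.mp (P.map_eq_zero_iff.mp h2)
  · intro x y
    have h1 := hG (Pi.single x 1) (Pi.single y 1)
    have h2 := hG (Pi.single y 1) (Pi.single x 1)
    simp only [single_one_dotProduct, Matrix.mulVec_single_one, Matrix.col_apply] at h1 h2
    rw [← h1, ← h2, ← sympBilin_apply, ← sympBilin_apply]
    exact (sympBilin_isAlt.neg_eq _ _).symm
  · intro x
    have h1 := hG (Pi.single x 1) (Pi.single x 1)
    simp only [single_one_dotProduct, Matrix.mulVec_single_one, Matrix.col_apply] at h1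
    rw [← h1, ← sympBilin_apply]
    exact sympBilin_isAlt _

/-- Every invariant alternating form comes from a symplectic matrix. -/
theorem exists_of_form [Fintype F] {G : Matrix (Ix d) (Ix d) F} (hG : IsAltInv G)
    (hcard : Fintype.card (Ix d) = 2 * m) :
    ∃ g : Matrix (Fin m ⊕ Fin m) (Fin m ⊕ Fin m) F, g ∈ Matrix.symplecticGroup (Fin m) F ∧ Rel g G := by
  classical
  obtain ⟨hI, hu, h1, h2⟩ := hG
  have hf : finrank F (Ix d → F) = finrank F (Fin m ⊕ Fin m → F) := by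
    rw [Module.finrank_fintype_fun_eq_card, Module.finrank_fintype_fun_eq_card, hcard, Fintype.card_sum,
      Fintype.card_fin]
    ring
  obtain ⟨P, hP⟩ := Cfsg.Agent.Lib.Wall.PolarForm.exists_isom_alt (Matrix.toBilin' G) (sympBilin m F)
    (isAlt_toBilin G h1 h2) sympBilin_isAlt (nondeg_of_isUnit G hu) sympBilin_nondegenerate hf
  have hP' : ∀ x y, sympForm m F (P x) (P y) = x ⬝ᵥ G *ᵥ y := by
    intro x y
    have := hP x y
    rwa [Forms.toBilin_apply, sympBilin_apply] at this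
  let L : (Fin m ⊕ Fin m → F) →ₗ[F] (Fin m ⊕ Fin m → F) :=
    P.toLinearMap ∘ₗ Matrix.mulVecLin (jordanTypeMatrix d F) ∘ₗ P.symm.toLinearMap
  have hL : ∀ y, LinearMap.toMatrix' L *ᵥ y = P (jordanTypeMatrix d F *ᵥ P.symm y) := by
    intro y
    rw [LinearMap.toMatrix'_mulVec]
    rfl
  refine ⟨LinearMap.toMatrix' L, ?_, P, ?_, hP'⟩
  · rw [mem_symplecticGroup_iff]
    intro u v
    rw [hL, hL, hP', dot_mulVec_mulVec, hI, ← hP']
    simp
  · intro x
    rw [hL]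
    simp

theorem even_count {G : Matrix (Ix d) (Ix d) F} (hG : IsAltInv G) (j : ℕ) (hj : Odd j) :
    Even (Finset.univ.filter (fun k : Fin t => d k = j)).card :=
  even_of_alt_form hG.1 hG.2.1 hG.2.2.1 hG.2.2.2 j hj

theorem count_mset (d : Fin t → ℕ) (j : ℕ) :
    (mset d).count j = (Finset.univ.filter (fun k : Fin t => d k = j)).card := by
  classical
  rw [mset, Multiset.count_map, Finset.card, Finset.filter_val]
  congr 1
  apply Multiset.filter_congr
  intro k _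
  exact eq_comm

end Cfsg.Agent.Lib.SpWall.Rel
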